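import Cfsg.Agent.Lib.Helper51.EO4.BAS2
import Cfsg.Agent.Lib.Helper31.FpfNilp

set_option autoImplicit false

namespace Cfsg.Agent.Lib.Helper51.EO4

open Cfsg

variable {G : Type*} [Group G] [Finite G]

theorem sylow3_card (h : Hyp G) (N : Subgroup G) [N.Normal] (hN : IsPGroup 2 N) (hN1 : N ≠ ⊥)
    (Q : Sylow 3 G) : Nat.card Q = 3 := by
  haveI : Fact (Nat.Prime 3) := ⟨Nat.prime_three⟩
  have hcyc : IsCyclic Q := by
    have := Cfsg.Agent.Lib.Helper31.fpf_pgroup_structure 3 (Q : Subgroup G) N Q.2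
      (by rw [Subgroup.normalizer_eq_top]; exact le_top) hN1 (by
        intro e he he1
        rw [eq_bot_iff]
        intro n hn
        rw [Subgroup.mem_inf, Subgroup.mem_centralizer_iff] at hn
        have ho := h.order_three_of_pgroup Q.2 he he1
        exact h.fpf_two ho hN n hn.1 (hn.2 e rfl))
    rcases this with h1 | ⟨h1, _⟩
    · exact h1
    · omega
  obtain ⟨g, hg⟩ := hcyc.exists_generator
  have ho : orderOf g = Nat.card Q := orderOf_eq_card_of_forall_mem_zpowers hg
  have ho' : orderOf (g : G) = Nat.card Q := by rw [← ho, Subgroup.orderOf_coe]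
  have hle := h.le4 (g : G)
  rw [ho'] at hle
  have hcard := Sylow.card_eq_multiplicity Q
  have hpos : 1 ≤ (Nat.card G).factorization 3 := by
    obtain ⟨x, hx⟩ := h.ex3
    have hd : 3 ∣ Nat.card G := hx ▸ orderOf_dvd_natCard x
    exact (Nat.prime_three.dvd_iff_one_le_factorization Nat.card_pos.ne').1 hd
  rw [hcard] at hle ⊢
  generalize (Nat.card G).factorization 3 = f at *
  have hf2 : f < 2 := by
    by_contra hcon
    have : 3 ^ 2 ≤ 3 ^ f := Nat.pow_le_pow_right (by norm_num) (by omega)
    omega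
  have : f = 1 := by omega
  rw [this]; norm_num

end Cfsg.Agent.Lib.Helper51.EO4
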