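import Cfsg.Agent.Lib.Helper51.EO4.A0
import Cfsg.Agent.Lib.Helper1.Cores

set_option autoImplicit false

namespace Cfsg.Agent.Lib.Helper51.EO4

open Cfsg

variable {G : Type*} [Group G] [Finite G]

theorem A1_card (h : Hyp G) :
    Nat.card G = 2 ^ (Nat.card G).factorization 2 * 3 ^ (Nat.card G).factorization 3 := by
  have hne : Nat.card G ≠ 0 := Nat.card_pos.ne'
  conv_lhs => rw [← Nat.prod_factorization_pow_eq_self hne]
  have hsub : (Nat.card G).factorization.support ⊆ {2, 3} := by
    intro p hp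
    rw [Nat.support_factorization, Nat.mem_primeFactors] at hp
    rcases h.prime_dvd hp.1 hp.2.1 with rfl | rfl <;> simp
  rw [Finsupp.prod_of_support_subset _ hsub _ (by intro i _; exact pow_zero i)]
  rw [Finset.prod_pair (by norm_num)]

theorem A1_le_sylow {p : ℕ} [Fact p.Prime] (N : Subgroup G) [hn : N.Normal] (hN : IsPGroup p N)
    (T : Sylow p G) : N ≤ T := by
  obtain ⟨P, hP⟩ := hN.exists_le_sylow
  obtain ⟨c, hc⟩ := MulAction.exists_smul_eq G P T
  intro n hnN
  rw [← hc, Sylow.coe_subgroup_smul]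
  refine ⟨c⁻¹ * n * c, hP ?_, ?_⟩
  · have := hn.conj_mem n hnN c⁻¹
    rwa [inv_inv] at this
  · show c * (c⁻¹ * n * c) * c⁻¹ = n
    group

theorem index_cases (h : Hyp G) (N : Subgroup G) [N.Normal] (hN : N = pCore 2 G) (hN1 : N ≠ ⊥) :
    N.index = 3 ∨ (N.index = 6 ∧ Nonempty (G ⧸ N ≃* Equiv.Perm (Fin 3))) := by
  haveI : Fact (Nat.Prime 2) := ⟨Nat.prime_two⟩
  haveI : Fact (Nat.Prime 3) := ⟨Nat.prime_three⟩
  have hNp : IsPGroup 2 N := by rw [hN]; exact Cfsg.Agent.Lib.Helper1.pCore_isPGroup 2 G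
  obtain ⟨T⟩ : Nonempty (Sylow 2 G) := inferInstance
  obtain ⟨Q⟩ : Nonempty (Sylow 3 G) := inferInstance
  have hQ := sylow3_card h N hNp hN1 Q
  have hT3 : (T : Subgroup G).index = 3 := by
    have h1 := A1_card h
    rw [← Sylow.card_eq_multiplicity T, ← Sylow.card_eq_multiplicity Q, hQ] at h1
    have h2 := (T : Subgroup G).card_mul_index
    rw [h1] at h2
    exact Nat.eq_of_mul_eq_mul_left Nat.card_pos h2
  have hNT : N ≤ T := A1_le_sylow N hNp T
  have hK : N = (T : Subgroup G).normalCore := by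
    apply le_antisymm
    · exact Subgroup.normal_le_normalCore.2 hNT
    · rw [hN]
      exact Cfsg.Agent.Lib.Helper1.le_pCore (Subgroup.normalCore_normal _)
        (T.2.to_le (Subgroup.normalCore_le _))
  have hker : N = (MulAction.toPermHom G (G ⧸ (T : Subgroup G))).ker := by
    rw [hK, Subgroup.normalCore_eq_ker]
  have hcardQ : Nat.card (G ⧸ (T : Subgroup G)) = 3 := hT3
  have hcardP : Nat.card (Equiv.Perm (G ⧸ (T : Subgroup G))) = 6 := by
    rw [Nat.card_perm, hcardQ]; rfl
  have hidx : N.index = Nat.card (MulAction.toPermHom G (G ⧸ (T : Subgroup G))).range := by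
    rw [hker, Subgroup.index_ker]
  have hd6 : N.index ∣ 6 := by
    rw [hidx, ← hcardP]; exact Subgroup.card_subgroup_dvd_card _
  have hd3 : 3 ∣ N.index := by
    rw [← hT3]; exact Subgroup.index_dvd_of_le hNT
  have hcases : N.index = 3 ∨ N.index = 6 := by
    have hle : N.index ≤ 6 := Nat.le_of_dvd (by norm_num) hd6
    obtain ⟨k, hk⟩ := hd3
    rw [hk] at hd6 hle ⊢
    have : k ≤ 2 := by omega
    interval_cases k
    · simp at hd6
    · left; rfl
    · right; rfl
  rcases hcases with h3 | h6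
  · left; exact h3
  · right
    refine ⟨h6, ?_⟩
    have hsurj : Function.Surjective (MulAction.toPermHom G (G ⧸ (T : Subgroup G))) := by
      rw [← MonoidHom.range_eq_top]
      apply Subgroup.eq_top_of_card_eq
      rw [← hidx, h6, hcardP]
    exact ⟨(QuotientGroup.quotientMulEquivOfEq hker).trans
      ((QuotientGroup.quotientKerEquivOfSurjective _ hsurj).trans
        (Finite.equivFinOfCardEq hcardQ).permCongrHom)⟩

end Cfsg.Agent.Lib.Helper51.EO4
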