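import Cfsg.Agent.Lib.Helper51.EO4.F3A

set_option autoImplicit false

namespace Cfsg.Agent.Lib.Helper51.EO4

open scoped commutatorElement

theorem F3B_gen {N : Type*} [Group N] {X Y P Q : N} (hXP : Commute X P) (hYQ : Commute Y Q)
    (h3 : Commute (X * Y) (P * Q)) (hAQ : Commute (Y⁻¹ * (P⁻¹ * Y * P)) Q)
    (hBY : Commute (Q⁻¹ * (X⁻¹ * Q * X)) Y) :
    Y⁻¹ * (P⁻¹ * Y * P) = Q⁻¹ * (X⁻¹ * Q * X) := by
  have hA : Y * P = P * Y * (Y⁻¹ * (P⁻¹ * Y * P)) := by group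
  have hB : Q * X = X * Q * (Q⁻¹ * (X⁻¹ * Q * X)) := by group
  generalize Y⁻¹ * (P⁻¹ * Y * P) = A at *
  generalize Q⁻¹ * (X⁻¹ * Q * X) = B at *
  have : P * X * Y * Q * A = P * X * Y * Q * B := by
    calc P * X * Y * Q * A = P * X * Y * (Q * A) := by simp only [mul_assoc]
      _ = X * P * Y * (A * Q) := by rw [hAQ.eq, hXP.eq]
      _ = X * (P * Y * A) * Q := by simp only [mul_assoc]
      _ = X * (Y * P) * Q := by rw [hA]
      _ = X * Y * (P * Q) := by simp only [mul_assoc]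
      _ = P * Q * (X * Y) := h3.eq
      _ = P * (Q * X) * Y := by simp only [mul_assoc]
      _ = P * (X * Q * B) * Y := by rw [hB]
      _ = P * X * Q * (B * Y) := by simp only [mul_assoc]
      _ = P * X * Q * (Y * B) := by rw [hBY.eq]
      _ = P * X * (Q * Y) * B := by simp only [mul_assoc]
      _ = P * X * (Y * Q) * B := by rw [hYQ.eq]
      _ = P * X * Y * Q * B := by simp only [mul_assoc]
  exact mul_left_cancel this

section abs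
variable {N : Type*} [Group N] [Finite N] (φ : N ≃* N) (h3 : ∀ n, φ (φ (φ n)) = n)
  (hf : ∀ n, φ n = n → n = 1)
include h3 hf

theorem F3B_P1 (x g : N) : Commute x (g⁻¹ * φ x * g) := by
  obtain ⟨h, hh⟩ := F3A_surj φ hf g⁻¹
  have hu := fpf3_comm φ h3 hf (h * x * h⁻¹)
  rw [← Commute.conj_iff h]
  have e : h * (g⁻¹ * φ x * g) * h⁻¹ = φ (h * x * h⁻¹) := by
    have hg : g = (φ h)⁻¹ * h := by rw [← inv_inv g, hh]; group
    rw [hg]
    simp only [map_mul, map_inv]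
    group
  rw [e]
  exact hu

theorem F3B_P1' (y a b : N) : Commute (a⁻¹ * y * a) (b⁻¹ * φ y * b) := by
  have := F3B_P1 φ h3 hf y (b * a⁻¹)
  rw [← Commute.conj_iff a]
  convert this using 1 <;> group

theorem F3B_I (x y g : N) :
    y⁻¹ * ((g⁻¹ * φ x * g)⁻¹ * y * (g⁻¹ * φ x * g)) =
      (g⁻¹ * φ y * g)⁻¹ * (x⁻¹ * (g⁻¹ * φ y * g) * x) := by
  apply F3B_gen (F3B_P1 φ h3 hf x g) (F3B_P1 φ h3 hf y g)
  · have := F3B_P1 φ h3 hf (x * y) g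
    rw [map_mul] at this
    convert this using 1
    group
  · exact Commute.mul_left (F3B_P1 φ h3 hf y g).inv_left (F3B_P1' φ h3 hf y _ g)
  · refine Commute.mul_left (F3B_P1 φ h3 hf y g).symm.inv_left ?_
    have := (F3B_P1 φ h3 hf y (g * x)).symm
    have e : x⁻¹ * (g⁻¹ * φ y * g) * x = (g * x)⁻¹ * φ y * (g * x) := by group
    rw [e]
    exact this

theorem F3B_I0 (x y : N) :
    y⁻¹ * ((φ x)⁻¹ * y * (φ x)) = (φ y)⁻¹ * (x⁻¹ * (φ y) * x) := by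
  have := F3B_I φ h3 hf x y 1
  simpa using this

theorem F3B_K (a b g : N) :
    a⁻¹ * ((g⁻¹ * b * g)⁻¹ * a * (g⁻¹ * b * g)) =
      ((φ g)⁻¹ * a * φ g)⁻¹ * (b⁻¹ * ((φ g)⁻¹ * a * φ g) * b) := by
  have hy : φ (φ (φ a)) = a := h3 a
  have E1 := F3B_I φ h3 hf b (φ (φ a)) g⁻¹
  have E2 := F3B_I0 φ h3 hf b (g⁻¹ * (φ (φ a)) * g)
  simp only [map_mul, map_inv, hy, inv_inv] at E1 E2
  generalize φ (φ a) = y at *
  calc a⁻¹ * ((g⁻¹ * b * g)⁻¹ * a * (g⁻¹ * b * g))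
      = g⁻¹ * ((g * a * g⁻¹)⁻¹ * (b⁻¹ * (g * a * g⁻¹) * b)) * g := by group
    _ = g⁻¹ * (y⁻¹ * ((g * φ b * g⁻¹)⁻¹ * y * (g * φ b * g⁻¹))) * g := by rw [E1]
    _ = (g⁻¹ * y * g)⁻¹ * ((φ b)⁻¹ * (g⁻¹ * y * g) * φ b) := by group
    _ = _ := E2

theorem F3B_M (a b g : N) :
    a⁻¹ * ((g⁻¹ * b * g)⁻¹ * a * (g⁻¹ * b * g)) =
      a⁻¹ * (((φ (φ g))⁻¹ * b * φ (φ g))⁻¹ * a * ((φ (φ g))⁻¹ * b * φ (φ g))) := by
  have K1 := F3B_K φ h3 hf a b g
  have K2 := F3B_K φ h3 hf b a (φ g)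
  rw [K1]
  have K3 := congrArg (fun u => u⁻¹) K2
  beta_reduce at K3
  generalize (φ g)⁻¹ * a * φ g = u at *
  generalize (φ (φ g))⁻¹ * b * φ (φ g) = v at *
  calc u⁻¹ * (b⁻¹ * u * b) = (b⁻¹ * (u⁻¹ * b * u))⁻¹ := by group
    _ = (v⁻¹ * (a⁻¹ * v * a))⁻¹ := K3
    _ = _ := by group

theorem F3B_cent (b g c : N) :
    Commute (((φ (φ g))⁻¹ * b * φ (φ g)) * (g⁻¹ * b * g)⁻¹) c := by
  have := F3B_M φ h3 hf c b g
  generalize (φ (φ g))⁻¹ * b * φ (φ g) = V at *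
  generalize g⁻¹ * b * g = U at *
  have h1 : U⁻¹ * c * U = V⁻¹ * c * V := mul_left_cancel this
  show V * U⁻¹ * c = c * (V * U⁻¹)
  calc V * U⁻¹ * c = V * (U⁻¹ * c * U) * U⁻¹ := by group
    _ = V * (V⁻¹ * c * V) * U⁻¹ := by rw [h1]
    _ = _ := by group

theorem fpf3_central (a b c : N) : Commute ⁅a, b⁆ c := by
  have hf2 : ∀ n, (φ.trans φ) n = n → n = 1 := by
    intro n hn
    apply hf
    have h1 : φ (φ n) = n := hn
    have := congrArg φ h1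
    rw [h3] at this
    exact this.symm
  obtain ⟨h, hh⟩ := F3A_surj (φ.trans φ) hf2 a
  have hh' : a = h⁻¹ * φ (φ h) := hh
  have := F3B_cent φ h3 hf b h⁻¹ (h * c * h⁻¹)
  rw [← Commute.conj_iff h⁻¹] at this
  simp only [map_inv, inv_inv] at this
  convert this using 1
  · rw [commutatorElement_def, hh']
    group
  · group

end abs

end Cfsg.Agent.Lib.Helper51.EO4
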