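import Cfsg.Agent.Lib.Helper51.EO4.BAS2
import Cfsg.Agent.Lib.Helper51.EO4.F3B

set_option autoImplicit false

namespace Cfsg.Agent.Lib.Helper51.EO4

open Cfsg
open scoped commutatorElement

theorem A2_nilp {G : Type*} [Group G] {Y : Subgroup G} (h : ⁅⁅Y, Y⁆, Y⁆ = ⊥) :
    Group.nilpotencyClass ↥Y ≤ 2 := by
  have hnil : Group.IsNilpotent ↥Y := (Subgroup.isNilpotent_iff_lowerCentralSeries Y).mpr ⟨2, h⟩
  rw [← Subgroup.lowerCentralSeries_eq_bot_iff_nilpotencyClass_le]
  have h1 := Subgroup.top_subtype_lowerCentralSeries Y 2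
  have h2 : Y.lowerCentralSeries 2 = ⊥ := h
  rw [h2, Subgroup.map_eq_bot_iff_of_injective _ Y.subtype_injective] at h1
  exact h1

variable {G : Type*} [Group G] [Finite G]

/-- conjugation by an element of order 3 on a normal 2-subgroup: the hypotheses of F3A/F3B -/
theorem A2_h3 (N : Subgroup G) [N.Normal] {x : G} (hx : orderOf x = 3) (n : N) :
    MulAut.conjNormal x (MulAut.conjNormal x (MulAut.conjNormal x n)) = n := by
  have hx3 : x ^ 3 = 1 := by rw [← hx]; exact pow_orderOf_eq_one x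
  have : MulAut.conjNormal x (MulAut.conjNormal x (MulAut.conjNormal x n))
      = (MulAut.conjNormal (x ^ 3) : N ≃* N) n := by
    rw [map_pow]; rfl
  rw [this, hx3, map_one]; rfl

theorem A2_hf (h : Hyp G) (N : Subgroup G) [N.Normal] (hN : IsPGroup 2 N) {x : G}
    (hx : orderOf x = 3) (n : N) (hn : MulAut.conjNormal x n = n) : n = 1 := by
  have h1 : x * (n : G) * x⁻¹ = n := by
    rw [← MulAut.conjNormal_apply, hn]
  exact Subtype.ext (h.fpf_two hx hN n n.2 (mul_inv_eq_iff_eq_mul.1 h1))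

theorem case_index3 (h : Hyp G) (N : Subgroup G) [N.Normal] (hN : IsPGroup 2 N)
    (hidx : N.index = 3) : Monoid.exponent N = 4 ∧ Group.nilpotencyClass N ≤ 2 := by
  have hmem : ∀ g : G, g ^ 4 = 1 → g ∈ N := by
    intro g hg
    rw [← QuotientGroup.eq_one_iff]
    have h3 : (g : G ⧸ N) ^ 3 = 1 := by
      have : Nat.card (G ⧸ N) = 3 := hidx
      rw [← this]; exact pow_card_eq_one'
    have h4 : (g : G ⧸ N) ^ 4 = 1 := by
      rw [← QuotientGroup.mk_pow, hg]; rfl
    rw [pow_succ, h3, one_mul] at h4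
    exact h4
  constructor
  · apply Nat.dvd_antisymm
    · apply Monoid.exponent_dvd_of_forall_pow_eq_one
      intro n
      exact Subtype.ext (h.pow_four_of_pgroup hN n.2)
    · obtain ⟨g, hg⟩ := h.ex4
      have hgN : g ∈ N := hmem g (by rw [← hg]; exact pow_orderOf_eq_one g)
      have := Monoid.order_dvd_exponent (⟨g, hgN⟩ : N)
      rw [← Subgroup.orderOf_coe] at this
      simpa only [hg] using this
  · obtain ⟨x, hx⟩ := h.ex3
    have hc := fpf3_central (MulAut.conjNormal x : N ≃* N) (A2_h3 N hx) (A2_hf h N hN hx)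
    apply A2_nilp
    rw [Subgroup.commutator_eq_bot_iff_le_centralizer, Subgroup.commutator_le]
    intro a ha b hb
    rw [Subgroup.mem_centralizer_iff]
    intro c hc'
    have := (hc ⟨a, ha⟩ ⟨b, hb⟩ ⟨c, hc'⟩).eq
    have := congrArg Subtype.val this
    exact this.symm

end Cfsg.Agent.Lib.Helper51.EO4
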