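import Cfsg.Agent.Lib.Helper51.EO4.BAS

set_option autoImplicit false

namespace Cfsg.Agent.Lib.Helper51.EO4

open Cfsg

variable {G : Type*} [Group G] [Finite G]

theorem Hyp.orderOf_cases (h : Hyp G) (g : G) :
    orderOf g = 1 ∨ orderOf g = 2 ∨ orderOf g = 3 ∨ orderOf g = 4 := by
  have h1 := h.le4 g
  have h2 := orderOf_pos g
  omega

theorem Hyp.pow_three_of_pgroup (h : Hyp G) {N : Subgroup G} (hN : IsPGroup 3 N) {e : G}
    (he : e ∈ N) : e ^ 3 = 1 := by
  obtain ⟨k, hk⟩ := hN ⟨e, he⟩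
  have hk' : e ^ 3 ^ k = 1 := by
    have := congrArg Subtype.val hk
    simpa using this
  have hd := orderOf_dvd_of_pow_eq_one hk'
  rcases h.orderOf_cases e with h1 | h1 | h1 | h1
  · rw [orderOf_eq_one_iff] at h1; rw [h1, one_pow]
  · rw [h1] at hd
    have := Nat.prime_two.dvd_of_dvd_pow hd
    omega
  · rw [← h1]; exact pow_orderOf_eq_one e
  · rw [h1] at hd
    have : 2 ∣ 3 ^ k := Dvd.dvd.trans (by norm_num) hd
    have := Nat.prime_two.dvd_of_dvd_pow this
    omega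

theorem Hyp.order_three_of_pgroup (h : Hyp G) {N : Subgroup G} (hN : IsPGroup 3 N) {e : G}
    (he : e ∈ N) (h1 : e ≠ 1) : orderOf e = 3 :=
  orderOf_eq_prime (h.pow_three_of_pgroup hN he) h1

theorem Hyp.pow_four_of_pgroup (h : Hyp G) {N : Subgroup G} (hN : IsPGroup 2 N) {e : G}
    (he : e ∈ N) : e ^ 4 = 1 := by
  obtain ⟨k, hk⟩ := hN ⟨e, he⟩
  have hk' : e ^ 2 ^ k = 1 := by
    have := congrArg Subtype.val hk
    simpa using this
  have hd := orderOf_dvd_of_pow_eq_one hk'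
  rcases h.orderOf_cases e with h1 | h1 | h1 | h1
  · rw [orderOf_eq_one_iff] at h1; rw [h1, one_pow]
  · exact orderOf_dvd_iff_pow_eq_one.1 (by rw [h1]; norm_num)
  · rw [h1] at hd
    have := Nat.prime_three.dvd_of_dvd_pow hd
    omega
  · rw [← h1]; exact pow_orderOf_eq_one e

/-- an element is either of order 3 or killed by 4 -/
theorem Hyp.three_or_four (h : Hyp G) (g : G) : orderOf g = 3 ∨ g ^ 4 = 1 := by
  rcases h.orderOf_cases g with h1 | h1 | h1 | h1
  · right; exact orderOf_dvd_iff_pow_eq_one.1 (by rw [h1]; norm_num)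
  · right; exact orderOf_dvd_iff_pow_eq_one.1 (by rw [h1]; norm_num)
  · left; exact h1
  · right; exact orderOf_dvd_iff_pow_eq_one.1 (by rw [h1])

end Cfsg.Agent.Lib.Helper51.EO4
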