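import Cfsg.Agent.Lib.Helper51.EO4.BAS
import Cfsg.Agent.Lib.Helper51.EO4.BAS2

/-! Ladder EO4, rung A3 (helper75): an involution inverting an element of order 3. -/

set_option autoImplicit false

namespace Cfsg.Agent.Lib.Helper51.EO4

open Cfsg

variable {G : Type*} [Group G] [Finite G]

theorem A3_conj_surj {y : G} {N : Subgroup G} [N.Normal] (hf : Fpf y N) {w : G} (hw : w ∈ N) :
    ∃ n ∈ N, n * y * n⁻¹ = w * y := by
  classical
  let f : N → N := fun n => ⟨n * y * (n:G)⁻¹ * y⁻¹, by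
    have : (n:G) * y * (n:G)⁻¹ * y⁻¹ = n * (y * (n:G)⁻¹ * y⁻¹) := by group
    rw [this]
    exact N.mul_mem n.2 (Subgroup.Normal.conj_mem inferInstance _ (N.inv_mem n.2) y)⟩
  have hinj : Function.Injective f := by
    intro n m hnm
    have h1 : (n:G) * y * (n:G)⁻¹ * y⁻¹ = m * y * (m:G)⁻¹ * y⁻¹ := congrArg Subtype.val hnm
    have h2 : (n:G) * y * (n:G)⁻¹ = m * y * (m:G)⁻¹ := mul_right_cancel h1
    have h3 : y * ((m:G)⁻¹ * n) = ((m:G)⁻¹ * n) * y := by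
      have h5 : (m:G)⁻¹ * (n * y * (n:G)⁻¹) * n = (m:G)⁻¹ * (m * y * (m:G)⁻¹) * n := by rw [h2]
      simp only [mul_assoc, inv_mul_cancel, mul_one, inv_mul_cancel_left] at h5
      simp only [mul_assoc]; exact h5.symm
    have h4 := hf _ (N.mul_mem (N.inv_mem m.2) n.2) h3
    have h6 : (n:G) = m := (inv_mul_eq_one.mp h4).symm
    exact Subtype.ext h6
  have hsurj := Finite.surjective_of_injective hinj
  obtain ⟨n, hn⟩ := hsurj ⟨w, hw⟩
  refine ⟨n, n.2, ?_⟩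
  have h1 : (n:G) * y * (n:G)⁻¹ * y⁻¹ = w := congrArg Subtype.val hn
  rw [← h1]; group

theorem exists_inverting (h : Hyp G) (N : Subgroup G) [N.Normal] (hN : IsPGroup 2 N)
    (hidx : N.index = 6) : ∃ x t : G, orderOf x = 3 ∧ orderOf t = 2 ∧ t * x * t⁻¹ = x⁻¹ := by
  classical
  obtain ⟨x, hx⟩ := h.ex3
  have hcard : Nat.card (G ⧸ N) = 6 := hidx
  have hxN : x ∉ N := by
    intro hxN
    obtain ⟨k, hk⟩ := hN ⟨x, hxN⟩
    have h1 : x ^ (2^k) = 1 := by simpa using congrArg Subtype.val hk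
    have h3 : 3 ∣ 2^k := hx ▸ orderOf_dvd_of_pow_eq_one h1
    have := (Nat.Prime.dvd_of_dvd_pow Nat.prime_three h3)
    omega
  have : Fact (Nat.Prime 2) := ⟨Nat.prime_two⟩
  have : Fact (Nat.Prime 3) := ⟨Nat.prime_three⟩
  set xb : G ⧸ N := (x : G ⧸ N) with hxb
  have hxb1 : xb ≠ 1 := fun h => hxN ((QuotientGroup.eq_one_iff x).mp h)
  have hxbp : xb ^ 3 = 1 := by
    rw [hxb, ← QuotientGroup.mk_pow, ← hx, pow_orderOf_eq_one]; rfl
  have hxb3 : orderOf xb = 3 := orderOf_eq_prime hxbp hxb1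
  obtain ⟨sb, hsb⟩ := exists_prime_orderOf_dvd_card' (G := G ⧸ N) 2 (by rw [hcard]; norm_num)
  obtain ⟨s, rfl⟩ := QuotientGroup.mk_surjective sb
  have hidx2 : (Subgroup.zpowers xb).index = 2 := by
    have := (Subgroup.zpowers xb).card_mul_index
    rw [Nat.card_zpowers, hxb3, hcard] at this
    omega
  have := Subgroup.normal_of_index_eq_two hidx2
  have hmem : (s : G ⧸ N) * xb * (s : G ⧸ N)⁻¹ ∈ Subgroup.zpowers xb :=
    Subgroup.Normal.conj_mem inferInstance _ (Subgroup.mem_zpowers xb) _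
  rw [mem_zpowers_iff_mem_range_orderOf, hxb3] at hmem
  obtain ⟨k, hk, hk2⟩ := Finset.mem_image.mp hmem
  have hk3 : k < 3 := Finset.mem_range.mp hk
  have hy : ∃ y : G, (y = x ∨ y = x⁻¹) ∧ s * x * s⁻¹ * y⁻¹ ∈ N := by
    interval_cases k
    · exfalso
      apply hxb1
      have h1 : (s : G ⧸ N) * xb * (s : G ⧸ N)⁻¹ = 1 := by rw [← hk2]; simp
      have h2 : xb = (s : G ⧸ N)⁻¹ * ((s : G ⧸ N) * xb * (s : G ⧸ N)⁻¹) * (s : G ⧸ N) := by group
      rw [h2, h1]; simp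
    · refine ⟨x, Or.inl rfl, ?_⟩
      rw [← QuotientGroup.eq_one_iff]
      have h1 : ((s * x * s⁻¹ * x⁻¹ : G) : G ⧸ N) = (s : G ⧸ N) * xb * (s : G ⧸ N)⁻¹ * xb⁻¹ := rfl
      rw [h1, ← hk2]; simp
    · refine ⟨x⁻¹, Or.inr rfl, ?_⟩
      rw [← QuotientGroup.eq_one_iff]
      have h1 : ((s * x * s⁻¹ * x⁻¹⁻¹ : G) : G ⧸ N) = (s : G ⧸ N) * xb * (s : G ⧸ N)⁻¹ * xb⁻¹⁻¹ := rfl
      rw [h1, ← hk2, inv_inv]
      show xb ^ 2 * xb = 1
      rw [← pow_succ]; exact hxbp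
  obtain ⟨y, hyx, hw⟩ := hy
  have hy3 : orderOf y = 3 := by
    rcases hyx with rfl | rfl
    · exact hx
    · rw [orderOf_inv]; exact hx
  obtain ⟨n, hn, hn2⟩ := A3_conj_surj (h.fpf_two hy3 hN) hw
  have hn3 : n * y * n⁻¹ = s * x * s⁻¹ := by rw [hn2]; group
  set t : G := n⁻¹ * s with ht
  have htx : t * x * t⁻¹ = y := by
    have : t * x * t⁻¹ = n⁻¹ * (s * x * s⁻¹) * n := by rw [ht]; group
    rw [this, ← hn3]; group
  have htb : (t : G ⧸ N) = (s : G ⧸ N) := by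
    rw [ht, QuotientGroup.mk_mul, (QuotientGroup.eq_one_iff _).mpr (N.inv_mem hn), one_mul]
  have ht1 : t ≠ 1 := by
    intro h1
    rw [h1] at htb
    rw [← htb] at hsb
    simp at hsb
  have ht2N : t ^ 2 ∈ N := by
    rw [← QuotientGroup.eq_one_iff, QuotientGroup.mk_pow, htb, ← hsb, pow_orderOf_eq_one]
  have hcomm : x * t ^ 2 = t ^ 2 * x := by
    have h1 : t * y * t⁻¹ = x := by
      rcases hyx with rfl | rfl
      · exact htx
      · have : t * x⁻¹ * t⁻¹ = (t * x * t⁻¹)⁻¹ := by group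
        rw [this, htx, inv_inv]
    have h2 : t ^ 2 * x * (t ^ 2)⁻¹ = x := by
      have : t ^ 2 * x * (t ^ 2)⁻¹ = t * (t * x * t⁻¹) * t⁻¹ := by
        rw [pow_two, mul_inv_rev]; simp only [mul_assoc]
      rw [this, htx, h1]
    have h3 : t ^ 2 * x = x * t ^ 2 := by
      calc t ^ 2 * x = (t ^ 2 * x * (t ^ 2)⁻¹) * t ^ 2 := by group
        _ = x * t ^ 2 := by rw [h2]
    exact h3.symm
  have ht2 : t ^ 2 = 1 := h.fpf_two hx hN _ ht2N hcomm
  have hto : orderOf t = 2 := orderOf_eq_prime ht2 ht1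
  rcases hyx with rfl | rfl
  · exfalso
    refine h.no6 (a := t) (b := y) ?_ hto hx
    show t * y = y * t
    calc t * y = (t * y * t⁻¹) * t := by group
      _ = y * t := by rw [htx]
  · exact ⟨x, t, hx, hto, htx⟩

end Cfsg.Agent.Lib.Helper51.EO4
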