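import Cfsg.Agent.Lib.Helper51.EO4.EL2

set_option autoImplicit false

namespace Cfsg.Agent.Lib.Helper51.EO4

open scoped commutatorElement

section abs
variable {N : Type*} [Group N] [Finite N] (φ : N ≃* N) (h3 : ∀ n, φ (φ (φ n)) = n)
  (hf : ∀ n, φ n = n → n = 1)
variable (τ : N ≃* N) (ht : ∀ n, τ (τ n) = n) (hi : ∀ n, τ (φ (τ n)) = φ (φ n))
  (h4 : ∀ n : N, n ^ 4 = 1) (hq : ∀ n : N, (n * τ n) ^ 2 = 1)
include h3 hf ht hi h4 hq

theorem exp_two (n : N) : n ^ 2 = 1 := by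
  have hcl := fpf3_central φ h3 hf
  obtain ⟨w, hw⟩ : ∃ w, w = τ (φ (φ n)) := ⟨_, rfl⟩
  have hw1 : τ w = φ (φ n) := by rw [hw, ht]
  have hw2 : τ (φ (φ w)) = n := by
    -- τ φ φ τ = φ
    have e1 : ∀ m, τ (φ (φ (τ m))) = φ m := by
      intro m
      have : φ (φ (τ m)) = τ (φ m) := by rw [← hi (τ m), ht]
      rw [this, ht]
    rw [hw, e1, h3]
  have hcomm := e_comm_phi φ h3 hf τ ht hi h4 hq w (φ (φ w))
  have ha2 := hq w
  have hb2 : (φ (φ (φ w) * τ (φ (φ w)))) ^ 2 = 1 := by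
    rw [← map_pow, hq, map_one]
  have hab : w * τ w * φ (φ (φ w) * τ (φ (φ w))) = w * φ (φ n) * (w * φ n) := by
    rw [map_mul, h3, hw1, hw2]
  have hc2 : (w * φ (φ n) * (w * φ n)) ^ 2 = 1 := by
    rw [← hab, hcomm.mul_pow, ha2, hb2, one_mul]
  -- z = n * c⁻¹ central
  have hz : EL1_pi (n * (w * φ (φ n) * (w * φ n))⁻¹) = 1 := by
    have e1 : EL1_pi (w * φ (φ n) * (w * φ n)) = EL1_pi n := by
      have hu : EL1_pi w * EL1_pi w = 1 := by
        rw [← EL1_pi_mul, ← pow_two]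
        exact EL1_pi_eq_one.2 (sq_central φ h3 hf τ ht hi h4 hq w)
      have hp : EL1_pi n * EL1_pi n = 1 := by
        rw [← EL1_pi_mul, ← pow_two]
        exact EL1_pi_eq_one.2 (sq_central φ h3 hf τ ht hi h4 hq n)
      have hn := congrArg EL1_pi (fpf3_norm φ h3 hf n)
      rw [EL1_pi_mul, EL1_pi_mul, EL1_pi_one] at hn
      rw [EL1_pi_mul, EL1_pi_mul, EL1_pi_mul]
      have c1 := EL1_pi_comm hcl (φ (φ n)) w
      have c2 := EL1_pi_comm hcl (φ (φ n)) (φ n)
      generalize EL1_pi w = u at *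
      generalize EL1_pi n = p at *
      generalize EL1_pi (φ n) = p' at *
      generalize EL1_pi (φ (φ n)) = p'' at *
      calc u * p'' * (u * p') = u * (p'' * u) * p' := by simp only [mul_assoc]
        _ = u * (u * p'') * p' := by rw [c1]
        _ = (u * u) * (p'' * p') := by simp only [mul_assoc]
        _ = p' * p'' := by rw [hu, one_mul, c2]
        _ = (p * p) * (p' * p'') := by rw [hp, one_mul]
        _ = p * (p * p' * p'') := by simp only [mul_assoc]
        _ = p := by rw [hn, mul_one]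
    have e2 : EL1_pi (n * (w * φ (φ n) * (w * φ n))⁻¹) * EL1_pi (w * φ (φ n) * (w * φ n))
        = EL1_pi n := by
      rw [← EL1_pi_mul, inv_mul_cancel_right]
    rw [e1] at e2
    exact mul_eq_right.1 e2
  rw [EL1_pi_eq_one] at hz
  have hz2 := central_sq φ h3 hf τ ht hi h4 hq _ hz
  have hn : n = (n * (w * φ (φ n) * (w * φ n))⁻¹) * (w * φ (φ n) * (w * φ n)) := by
    rw [inv_mul_cancel_right]
  rw [hn, (hz _).mul_pow, hz2, hc2, one_mul]

end abs

end Cfsg.Agent.Lib.Helper51.EO4
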