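import Cfsg.Agent.Lib.Helper51.EO4.A2
import Cfsg.Agent.Lib.Helper51.EO4.EL3

set_option autoImplicit false

namespace Cfsg.Agent.Lib.Helper51.EO4

open Cfsg

variable {G : Type*} [Group G] [Finite G]

theorem case_index6 (h : Hyp G) (N : Subgroup G) [N.Normal] (hN : IsPGroup 2 N)
    {x t : G} (hx : orderOf x = 3) (ht : orderOf t = 2) (hxt : t * x * t⁻¹ = x⁻¹) :
    IsElementaryAbelian 2 N := by
  have hx3 : x ^ 3 = 1 := by rw [← hx]; exact pow_orderOf_eq_one x
  have ht2 : t ^ 2 = 1 := by rw [← ht]; exact pow_orderOf_eq_one t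
  have hti : t⁻¹ = t := by
    rw [inv_eq_iff_mul_eq_one, ← pow_two]; exact ht2
  have hxN : x ∉ N := by
    intro hxN
    have h4 := h.pow_four_of_pgroup hN hxN
    rw [pow_succ, hx3, one_mul] at h4
    rw [h4, orderOf_one] at hx
    omega
  have htN : t ∉ N := by
    intro htN
    apply hxN
    have h1 : t * (x * t⁻¹ * x⁻¹) ∈ N :=
      N.mul_mem htN (‹N.Normal›.conj_mem _ (N.inv_mem htN) x)
    have h2 : t * (x * t⁻¹ * x⁻¹) = x := by
      calc t * (x * t⁻¹ * x⁻¹) = (t * x * t⁻¹) * x⁻¹ := by group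
        _ = x⁻¹ * x⁻¹ := by rw [hxt]
        _ = x⁻¹ * x⁻¹ * x ^ 3 := by rw [hx3, mul_one]
        _ = x := by group
    rwa [h2] at h1
  have hτ : ∀ n : N, MulAut.conjNormal t (MulAut.conjNormal t n) = n := by
    intro n
    have : MulAut.conjNormal t (MulAut.conjNormal t n)
        = (MulAut.conjNormal (t ^ 2) : N ≃* N) n := by
      rw [map_pow]; rfl
    rw [this, ht2, map_one]; rfl
  have hi : ∀ n : N, MulAut.conjNormal t (MulAut.conjNormal x (MulAut.conjNormal t n))
      = MulAut.conjNormal x (MulAut.conjNormal x n) := by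
    intro n
    have e1 : MulAut.conjNormal t (MulAut.conjNormal x (MulAut.conjNormal t n))
        = (MulAut.conjNormal (t * x * t) : N ≃* N) n := by
      rw [map_mul, map_mul]; rfl
    have e2 : MulAut.conjNormal x (MulAut.conjNormal x n)
        = (MulAut.conjNormal (x * x) : N ≃* N) n := by
      rw [map_mul]; rfl
    have e3 : t * x * t = x * x := by
      calc t * x * t = t * x * t⁻¹ := by rw [hti]
        _ = x⁻¹ := hxt
        _ = x⁻¹ * x ^ 3 := by rw [hx3, mul_one]
        _ = x * x := by simp only [pow_succ, pow_zero, one_mul, mul_assoc, inv_mul_cancel_left]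
    rw [e1, e2, e3]
  have h4 : ∀ n : N, n ^ 4 = 1 := fun n => Subtype.ext (h.pow_four_of_pgroup hN n.2)
  have hq : ∀ n : N, (n * MulAut.conjNormal t n) ^ 2 = 1 := by
    intro n
    apply Subtype.ext
    have e1 : (((n * MulAut.conjNormal t n) ^ 2 : N) : G) = ((n : G) * t) ^ 4 := by
      rw [Subgroup.coe_pow, Subgroup.coe_mul, MulAut.conjNormal_apply, hti]
      simp only [pow_succ, pow_zero, one_mul, mul_assoc]
    rw [e1, Subgroup.coe_one]
    rcases h.three_or_four ((n : G) * t) with h3 | h3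
    · exfalso
      apply htN
      rw [← QuotientGroup.eq_one_iff]
      have hm : (((n : G) * t : G) : G ⧸ N) = (t : G ⧸ N) := by
        rw [QuotientGroup.mk_mul, (QuotientGroup.eq_one_iff (n : G)).2 n.2, one_mul]
      have h5 : (t : G ⧸ N) ^ 3 = 1 := by
        rw [← hm, ← QuotientGroup.mk_pow, ← h3, pow_orderOf_eq_one]; rfl
      have h6 : (t : G ⧸ N) ^ 2 = 1 := by
        rw [← QuotientGroup.mk_pow, ht2]; rfl
      rw [pow_succ, h6, one_mul] at h5
      exact h5
    · exact h3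
  have h2 := exp_two (MulAut.conjNormal x : N ≃* N) (A2_h3 N hx) (A2_hf h N hN hx)
    (MulAut.conjNormal t : N ≃* N) hτ hi h4 hq
  refine ⟨⟨⟨fun a b => ?_⟩⟩, fun a ha => ?_⟩
  · exact (EL2_comm_of_sq (h2 a) (h2 b) (h2 (a * b))).eq
  · exact congrArg Subtype.val (h2 ⟨a, ha⟩)

end Cfsg.Agent.Lib.Helper51.EO4
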