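import Cfsg.Agent.Lib.Helper51.EO4.BAS2
import Cfsg.Agent.Lib.Helper31.FpfNilp

set_option autoImplicit false

namespace Cfsg.Agent.Lib.Helper51.EO4

open Cfsg

variable {G : Type*} [Group G] [Finite G]

/-- every Sylow 2-subgroup contains an element of order 4 -/
theorem B1_ex4 (h : Hyp G) (T : Sylow 2 G) : ∃ g ∈ (T : Subgroup G), orderOf g = 4 := by
  haveI : Fact (Nat.Prime 2) := ⟨Nat.prime_two⟩
  obtain ⟨g, hg⟩ := h.ex4
  have hp : IsPGroup 2 (Subgroup.zpowers g) := by
    apply IsPGroup.of_card (n := 2)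
    rw [Nat.card_zpowers, hg]; norm_num
  obtain ⟨P, hP⟩ := hp.exists_le_sylow
  obtain ⟨c, hc⟩ := MulAction.exists_smul_eq G P T
  refine ⟨c * g * c⁻¹, ?_, ?_⟩
  · rw [← hc, Sylow.coe_subgroup_smul]
    exact ⟨g, hP (Subgroup.mem_zpowers g), rfl⟩
  · have : c * g * c⁻¹ = MulAut.conj c g := rfl
    rw [this, MulEquiv.orderOf_eq, hg]

theorem sylow2_struct (h : Hyp G) (N : Subgroup G) [N.Normal] (hN : IsPGroup 3 N) (hN1 : N ≠ ⊥)
    (T : Sylow 2 G) :
    (IsCyclic T ∧ Nat.card T = 4) ∨ Nonempty (T ≃* QuaternionGroup 2) := by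
  haveI : Fact (Nat.Prime 2) := ⟨Nat.prime_two⟩
  have hs := Cfsg.Agent.Lib.Helper31.fpf_pgroup_structure 2 (T : Subgroup G) N T.2
      (by rw [Subgroup.normalizer_eq_top]; exact le_top) hN1 (by
        intro e he he1
        rw [eq_bot_iff]
        intro n hn
        rw [Subgroup.mem_inf, Subgroup.mem_centralizer_iff] at hn
        exact h.fpf_three he1 (h.pow_four_of_pgroup T.2 he) hN n hn.1 (hn.2 e rfl))
  obtain ⟨g, hgT, hg⟩ := B1_ex4 h T
  rcases hs with hcyc | ⟨_, n, ⟨e⟩⟩
  · left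
    refine ⟨hcyc, ?_⟩
    obtain ⟨t, ht⟩ := hcyc.exists_generator
    have ho : orderOf t = Nat.card T := orderOf_eq_card_of_forall_mem_zpowers ht
    have ho' : orderOf (t : G) = Nat.card T := by rw [← ho, Subgroup.orderOf_coe]
    have hle := h.le4 (t : G)
    rw [ho'] at hle
    have hd : orderOf (⟨g, hgT⟩ : T) ∣ Nat.card T := orderOf_dvd_natCard _
    rw [← Subgroup.orderOf_coe] at hd
    simp only [hg] at hd
    have hpos : 0 < Nat.card T := Nat.card_pos
    exact le_antisymm hle (Nat.le_of_dvd hpos hd)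
  · have ho : orderOf (e.symm (QuaternionGroup.a 1)) = 2 * 2 ^ n := by
      rw [MulEquiv.orderOf_eq, QuaternionGroup.orderOf_a_one]
    have hle := h.le4 ((e.symm (QuaternionGroup.a 1) : T) : G)
    rw [Subgroup.orderOf_coe, ho] at hle
    have hn : n < 2 := by
      by_contra hcon
      have : 2 ^ 2 ≤ 2 ^ n := Nat.pow_le_pow_right (by norm_num) (by omega)
      omega
    interval_cases n
    · left
      have e' : T ≃* QuaternionGroup 1 := e
      haveI := QuaternionGroup.quaternionGroup_one_isCyclic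
      refine ⟨isCyclic_of_surjective e'.symm e'.symm.surjective, ?_⟩
      rw [Nat.card_congr e'.toEquiv, Nat.card_eq_fintype_card, QuaternionGroup.card]
    · right
      exact ⟨e⟩

end Cfsg.Agent.Lib.Helper51.EO4
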