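import Cfsg.Agent.Lib.Helper51.EO4.Defs

set_option autoImplicit false

namespace Cfsg.Agent.Lib.Helper51.EO4

section abs
variable {N : Type*} [Group N] [Finite N] (φ : N ≃* N) (h3 : ∀ n, φ (φ (φ n)) = n)
  (hf : ∀ n, φ n = n → n = 1)

include hf in
theorem F3A_surj (n : N) : ∃ g : N, n = g⁻¹ * φ g := by
  have hinj : Function.Injective (fun g : N => g⁻¹ * φ g) := by
    intro a b hab
    have hab' : a⁻¹ * φ a = b⁻¹ * φ b := hab
    have : φ (a * b⁻¹) = a * b⁻¹ := by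
      rw [map_mul, map_inv]
      have h1 : φ a = a * (b⁻¹ * φ b) := by rw [← hab']; group
      rw [h1]; group
    have := hf _ this
    exact mul_inv_eq_one.1 this
  obtain ⟨g, hg⟩ := Finite.surjective_of_injective hinj n
  exact ⟨g, hg.symm⟩

include h3 hf

theorem fpf3_norm (n : N) : n * φ n * φ (φ n) = 1 := by
  obtain ⟨g, rfl⟩ := F3A_surj φ hf n
  simp only [map_mul, map_inv, h3]
  group

theorem fpf3_comm (n : N) : Commute n (φ n) := by
  have h1 := fpf3_norm φ h3 hf n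
  have h2 := fpf3_norm φ h3 hf n⁻¹
  simp only [map_inv] at h2
  -- n'' = (n n')⁻¹ ; n⁻¹ n'⁻¹ n''⁻¹ = 1 → n'' = n⁻¹ n'⁻¹ = (n' n)⁻¹
  have e1 : φ (φ n) = (n * φ n)⁻¹ := by
    rw [eq_inv_iff_mul_eq_one, mul_eq_one_iff_eq_inv, eq_comm, inv_eq_iff_mul_eq_one]
    exact h1
  have e2 : φ (φ n) = (φ n * n)⁻¹ := by
    rw [mul_inv_rev]
    exact (mul_inv_eq_one.1 h2).symm
  have : n * φ n = φ n * n := inv_injective (e1.symm.trans e2)
  exact this

end abs

end Cfsg.Agent.Lib.Helper51.EO4
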