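import Cfsg.Agent.Lib.Helper51.EO4.BAS2
import Cfsg.Agent.Lib.Helper51.EO4.F3A

set_option autoImplicit false

namespace Cfsg.Agent.Lib.Helper51.EO4

open Cfsg

variable {G : Type*} [Group G] [Finite G]

theorem elem_three (h : Hyp G) (N : Subgroup G) [N.Normal] (hN : IsPGroup 3 N) :
    IsElementaryAbelian 3 N := by
  refine ⟨?_, fun a ha => h.pow_three_of_pgroup hN ha⟩
  obtain ⟨g, hg⟩ := h.ex4
  have hz2 : (g ^ 2) ^ 2 = 1 := by
    rw [← pow_mul, show 2 * 2 = orderOf g from hg.symm]; exact pow_orderOf_eq_one g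
  have hz1 : g ^ 2 ≠ 1 := by
    intro hcon
    have := orderOf_dvd_of_pow_eq_one hcon
    rw [hg] at this
    omega
  have hz4 : (g ^ 2) ^ 4 = 1 := by
    rw [show 4 = 2 * 2 from rfl, pow_mul, hz2, one_pow]
  have hfp := h.fpf_three hz1 hz4 hN
  generalize g ^ 2 = z at *
  have hf : ∀ n : N, MulAut.conjNormal z n = n → n = 1 := by
    intro n hn
    have h1 : z * (n : G) * z⁻¹ = n := by
      rw [← MulAut.conjNormal_apply, hn]
    have h2 : z * (n : G) = n * z := by
      exact mul_inv_eq_iff_eq_mul.1 h1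
    exact Subtype.ext (hfp n n.2 h2)
  have h2 : ∀ n : N, MulAut.conjNormal z (MulAut.conjNormal z n) = n := by
    intro n
    apply Subtype.ext
    rw [MulAut.conjNormal_apply, MulAut.conjNormal_apply]
    have hzi : z⁻¹ = z := by
      rw [inv_eq_iff_mul_eq_one, ← pow_two]; exact hz2
    rw [hzi]
    calc z * (z * (n : G) * z) * z = (z * z) * n * (z * z) := by group
      _ = n := by rw [← pow_two, hz2, one_mul, mul_one]
  have hinv : ∀ n : N, MulAut.conjNormal z n = n⁻¹ := by
    intro n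
    obtain ⟨k, rfl⟩ := F3A_surj (MulAut.conjNormal z : N ≃* N) hf n
    rw [map_mul, map_inv, h2, mul_inv_rev, inv_inv]
  refine ⟨⟨fun a b => ?_⟩⟩
  have h1 := hinv (a * b)
  rw [map_mul, hinv, hinv, mul_inv_rev] at h1
  have := congrArg (fun u => u⁻¹) h1
  simpa using this.symm

end Cfsg.Agent.Lib.Helper51.EO4
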