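import Cfsg.Agent.Lib.Helper51.EO4.B2
import Cfsg.Agent.Lib.Helper1.Cores

set_option autoImplicit false

/-! EO4 ladder, rung B3 (written by helper54).  Direct proof: every involution inverts `N`, so the
product of two involutions centralises `N`, hence lies in `N`; this gives `G = N * C_G(z)`. -/

namespace Cfsg.Agent.Lib.Helper51.EO4

open Cfsg

variable {G : Type*} [Group G] [Finite G]

/-- an involution inverts a normal 3-subgroup -/
theorem B3_inverts (h : Hyp G) (N : Subgroup G) [N.Normal] (hN : IsPGroup 3 N) {z : G}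
    (hz : orderOf z = 2) : ∀ n ∈ N, z * n * z⁻¹ = n⁻¹ := by
  intro n hn
  have hz2 : z ^ 2 = 1 := by rw [← hz]; exact pow_orderOf_eq_one z
  have hz1 : z ≠ 1 := by
    rintro rfl
    rw [orderOf_one] at hz
    omega
  have hz4 : z ^ 4 = 1 := by
    rw [show 4 = 2 * 2 from rfl, pow_mul, hz2, one_pow]
  have hfp := h.fpf_three hz1 hz4 hN
  have hab := (elem_three h N hN).1
  have hzi : z⁻¹ = z := by
    rw [inv_eq_iff_mul_eq_one, ← pow_two]; exact hz2
  have hzz : z * z = 1 := by rw [← pow_two]; exact hz2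
  have hc : z * n * z⁻¹ ∈ N := ‹N.Normal›.conj_mem n hn z
  have hcomm : n * (z * n * z⁻¹) = (z * n * z⁻¹) * n := by
    have := hab.is_comm.comm ⟨n, hn⟩ ⟨_, hc⟩
    exact congrArg Subtype.val this
  have hm : n * (z * n * z⁻¹) = 1 := by
    apply hfp _ (N.mul_mem hn hc)
    rw [hzi] at hcomm ⊢
    calc z * (n * (z * n * z)) = (z * n * z) * n * z := by
          rw [hcomm]
          calc z * (z * n * z * n) = (z * z) * n * z * n := by group
            _ = n * z * n := by rw [hzz, one_mul]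
            _ = n * z * n * (z * z) := by rw [hzz, mul_one]
            _ = n * (z * n * z) * z := by group
            _ = (z * n * z) * n * z := by rw [hcomm]
      _ = n * (z * n * z) * z := by rw [hcomm]
  exact (eq_inv_of_mul_eq_one_right hm)

theorem exists_compl (h : Hyp G) (N : Subgroup G) [N.Normal] (hN : N = pCore 3 G) (hN1 : N ≠ ⊥) :
    ∃ T : Sylow 2 G, Subgroup.IsComplement' (T : Subgroup G) N := by
  classical
  have hN3 : IsPGroup 3 N := by rw [hN]; exact Cfsg.Agent.Lib.Helper1.pCore_isPGroup 3 G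
  obtain ⟨g0, hg0⟩ := h.ex4
  obtain ⟨z, hz⟩ : ∃ z : G, orderOf z = 2 := by
    refine ⟨g0 ^ 2, ?_⟩
    rw [orderOf_pow_of_dvd (by norm_num) (by rw [hg0]; norm_num), hg0]
  obtain ⟨n0, hn0, hn01⟩ : ∃ x : G, x ∈ N ∧ x ≠ 1 := by
    obtain ⟨a, ha⟩ := Subgroup.ne_bot_iff_exists_ne_one.1 hN1
    exact ⟨a, a.2, fun h' => ha (Subtype.ext h')⟩
  -- the centraliser of N lies in N
  have hCN : Subgroup.centralizer (N : Set G) ≤ N := by
    rw [hN]
    apply Cfsg.Agent.Lib.Helper1.le_pCore
    · rw [← hN]; infer_instance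
    · rw [← hN]
      intro c
      refine ⟨1, ?_⟩
      apply Subtype.ext
      rw [pow_one, Subgroup.coe_pow, Subgroup.coe_one]
      rcases h.three_or_four (c : G) with h3 | h4
      · rw [← h3]; exact pow_orderOf_eq_one _
      · by_cases hc1 : (c : G) = 1
        · rw [hc1, one_pow]
        · exfalso
          have hfp := h.fpf_three hc1 h4 hN3
          apply hn01
          apply hfp n0 hn0
          exact ((Subgroup.mem_centralizer_iff.1 c.2) n0 hn0).symm
  have hinvz := B3_inverts h N hN3 hz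
  -- factorisation
  have hfac : ∀ g : G, ∃ m ∈ N, ∃ c ∈ Subgroup.centralizer ({z} : Set G), g = m * c := by
    intro g
    have hw : orderOf (g * z * g⁻¹) = 2 := by
      have := orderOf_injective (MulAut.conj g).toMonoidHom (MulAut.conj g).injective z
      rw [← hz, ← this]; rfl
    have hinvw := B3_inverts h N hN3 hw
    have hu : g * z * g⁻¹ * z⁻¹ ∈ N := by
      apply hCN
      rw [Subgroup.mem_centralizer_iff]
      intro n hn
      have e1 : z⁻¹ * n * z = n⁻¹ := by
        have := hinvz n⁻¹ (N.inv_mem hn)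
        rw [inv_inv] at this
        calc z⁻¹ * n * z = z⁻¹ * (z * n⁻¹ * z⁻¹) * z := by rw [this]
          _ = n⁻¹ := by group
      have e2 := hinvw n⁻¹ (N.inv_mem hn)
      rw [inv_inv] at e2
      calc n * (g * z * g⁻¹ * z⁻¹) = (g * z * g⁻¹) * n⁻¹ * (g * z * g⁻¹)⁻¹ * (g * z * g⁻¹ * z⁻¹) := by
            rw [e2]
        _ = (g * z * g⁻¹) * (n⁻¹ * z⁻¹) := by group
        _ = (g * z * g⁻¹) * (z⁻¹ * n * z * z⁻¹) := by rw [e1]
        _ = g * z * g⁻¹ * z⁻¹ * n := by group
    obtain ⟨u, hu'⟩ : ∃ u, u = g * z * g⁻¹ * z⁻¹ := ⟨_, rfl⟩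
    rw [← hu'] at hu
    have hu3 : u ^ 3 = 1 := h.pow_three_of_pgroup hN3 hu
    have hgz : g * z * g⁻¹ = u * z := by rw [hu']; group
    refine ⟨u⁻¹, N.inv_mem hu, u * g, ?_, by group⟩
    rw [Subgroup.mem_centralizer_iff]
    intro y hy
    rw [Set.mem_singleton_iff] at hy
    subst hy
    -- y * (u * g) = (u * g) * y
    have e3 : y * u = u⁻¹ * y := by
      have := hinvz u hu
      rw [← this]; group
    have e4 : g * y = u * y * g := by
      rw [← hgz]; group
    have e5 : u * u * u = 1 := by rw [pow_succ, pow_two] at hu3; exact hu3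
    calc y * (u * g) = (y * u) * g := by group
      _ = u⁻¹ * y * g := by rw [e3]
      _ = (u * u * u) * u⁻¹ * y * g := by rw [e5, one_mul]
      _ = u * (u * y * g) := by group
      _ = u * g * y := by rw [← e4]; group
  -- the centraliser of z is a 2-group
  have hC2 : IsPGroup 2 (Subgroup.centralizer ({z} : Set G)) := by
    intro c
    refine ⟨2, ?_⟩
    apply Subtype.ext
    rw [Subgroup.coe_pow, Subgroup.coe_one]
    rcases h.three_or_four (c : G) with h3 | h4
    · exfalso
      have hcz : Commute z (c : G) := (Subgroup.mem_centralizer_iff.1 c.2) z rfl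
      exact h.no6 hcz hz h3
    · exact h4
  obtain ⟨T, hT⟩ := hC2.exists_le_sylow
  refine ⟨T, ?_⟩
  apply Subgroup.isComplement'_of_disjoint_and_mul_eq_univ
  · exact IsPGroup.disjoint_of_ne 2 3 (by norm_num) _ _ T.2 hN3
  · rw [Set.eq_univ_iff_forall]
    intro g
    obtain ⟨m, hm, c, hc, e⟩ := hfac g⁻¹
    refine ⟨c⁻¹, (T : Subgroup G).inv_mem (hT hc), m⁻¹, N.inv_mem hm, ?_⟩
    show c⁻¹ * m⁻¹ = g
    rw [← mul_inv_rev, ← e, inv_inv]

end Cfsg.Agent.Lib.Helper51.EO4
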