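import Cfsg.Agent.Lib.Helper51.EO4.Defs
import Cfsg.Agent.Lib.Helper1.Cores
import Cfsg.Agent.S0044

set_option autoImplicit false

namespace Cfsg.Agent.Lib.Helper51.EO4

open Cfsg

theorem core_ne_bot {X : Type*} [Group X] [Finite X] [Nontrivial X] (hs : Group.IsSolvable X)
    (hc : ∀ p : ℕ, p.Prime → p ∣ Nat.card X → p = 2 ∨ p = 3) :
    pCore 2 X ≠ ⊥ ∨ pCore 3 X ≠ ⊥ := by
  by_contra hcon
  push_neg at hcon
  have hF : fittingSubgroup X = ⊥ := by
    rw [Cfsg.Agent.Lib.Helper1.fitting_eq_iSup_pCore, iSup_eq_bot]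
    intro q
    by_cases hq : (q : ℕ) ∣ Nat.card X
    · rcases hc q q.2 hq with h | h
      · rw [h]; exact hcon.1
      · rw [h]; exact hcon.2
    · exact Cfsg.Agent.Lib.Helper1.pCore_eq_bot_of_not_dvd q.2 hq
  have h0 := @Cfsg.Agent.S0044.result X _ _ hs
  rw [hF] at h0
  have h1 : Subgroup.centralizer ((⊥ : Subgroup X) : Set X) = ⊤ := by
    rw [eq_top_iff]
    intro x _
    rw [Subgroup.mem_centralizer_iff]
    intro y hy
    have : y = 1 := hy
    rw [this, one_mul, mul_one]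
  rw [h1] at h0
  exact top_ne_bot (le_antisymm h0 bot_le)

end Cfsg.Agent.Lib.Helper51.EO4
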