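import Cfsg.Agent.Lib.Helper51.EO4.BAS
import Cfsg.Agent.Lib.Helper51.EO4.CORE
import Cfsg.Agent.Lib.Helper51.EO4.A1
import Cfsg.Agent.Lib.Helper51.EO4.A2
import Cfsg.Agent.Lib.Helper51.EO4.A3
import Cfsg.Agent.Lib.Helper51.EO4.A4
import Cfsg.Agent.Lib.Helper51.EO4.B1
import Cfsg.Agent.Lib.Helper51.EO4.B2
import Cfsg.Agent.Lib.Helper51.EO4.B3
import Cfsg.Agent.Lib.Helper1.Cores

set_option autoImplicit false

namespace Cfsg.Agent.Lib.Helper51.EO4

open Cfsg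

theorem main {G : Type*} [Group G] [Finite G]
    (h : Set.range (orderOf : G → ℕ) = {k : ℕ | 1 ≤ k ∧ k ≤ 4}) :
    ∃ (N : Subgroup G) (_ : N.Normal),
      (IsPGroup 2 ↥N ∧ Monoid.exponent ↥N = 4 ∧ Group.nilpotencyClass ↥N ≤ 2 ∧ N.index = 3) ∨
      (Cfsg.IsElementaryAbelian 2 N ∧ Nonempty (G ⧸ N ≃* Equiv.Perm (Fin 3))) ∨
      (Cfsg.IsElementaryAbelian 3 N ∧ ((IsCyclic (G ⧸ N) ∧ N.index = 4) ∨
        Nonempty (G ⧸ N ≃* QuaternionGroup 2))) := by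
  have H := hyp_of h
  have hnt : Nontrivial G := by
    obtain ⟨g, hg⟩ := H.ex3
    refine ⟨g, 1, ?_⟩
    rintro rfl
    rw [orderOf_one] at hg
    omega
  rcases core_ne_bot H.solvable (fun p hp hd => H.prime_dvd hp hd) with h2 | h3
  · have hn : (pCore 2 G).Normal := Cfsg.Agent.Lib.Helper1.pCore_normal 2 G
    have hp : IsPGroup 2 (pCore 2 G) := Cfsg.Agent.Lib.Helper1.pCore_isPGroup 2 G
    refine ⟨pCore 2 G, hn, ?_⟩
    rcases index_cases H (pCore 2 G) rfl h2 with hi | ⟨hi, e⟩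
    · left
      exact ⟨hp, (case_index3 H _ hp hi).1, (case_index3 H _ hp hi).2, hi⟩
    · right; left
      obtain ⟨x, t, hx, ht, hxt⟩ := exists_inverting H _ hp hi
      exact ⟨case_index6 H _ hp hx ht hxt, e⟩
  · have hn : (pCore 3 G).Normal := Cfsg.Agent.Lib.Helper1.pCore_normal 3 G
    have hp : IsPGroup 3 (pCore 3 G) := Cfsg.Agent.Lib.Helper1.pCore_isPGroup 3 G
    refine ⟨pCore 3 G, hn, ?_⟩
    right; right
    refine ⟨elem_three H _ hp, ?_⟩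
    obtain ⟨T, hc⟩ := exists_compl H (pCore 3 G) rfl h3
    have e : G ⧸ pCore 3 G ≃* (T : Subgroup G) := hc.QuotientMulEquiv
    rcases sylow2_struct H _ hp h3 T with ⟨hcyc, hcard⟩ | ⟨⟨e'⟩⟩
    · left
      refine ⟨isCyclic_of_surjective e.symm e.symm.surjective, ?_⟩
      rw [hc.index_eq_card]
      exact hcard
    · right
      exact ⟨e.trans e'⟩

end Cfsg.Agent.Lib.Helper51.EO4
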