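import Cfsg.Agent.Lib.Helper51.EO4.Defs
import Cfsg.Agent.S0144

set_option autoImplicit false

namespace Cfsg.Agent.Lib.Helper51.EO4

open Cfsg

variable {G : Type*} [Group G] [Finite G]

theorem hyp_of (h : Set.range (orderOf : G → ℕ) = {k : ℕ | 1 ≤ k ∧ k ≤ 4}) : Hyp G := by
  refine ⟨fun g => ?_, ?_, ?_⟩
  · have : orderOf g ∈ Set.range (orderOf : G → ℕ) := ⟨g, rfl⟩
    rw [h] at this
    exact this.2
  · have : (3 : ℕ) ∈ Set.range (orderOf : G → ℕ) := by
      rw [h]; exact ⟨by norm_num, by norm_num⟩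
    exact this
  · have : (4 : ℕ) ∈ Set.range (orderOf : G → ℕ) := by
      rw [h]; exact ⟨by norm_num, by norm_num⟩
    exact this

theorem Hyp.no6 (h : Hyp G) {a b : G} (hab : Commute a b) (ha : orderOf a = 2) (hb : orderOf b = 3) :
    False := by
  have h6 : orderOf (a * b) = 2 * 3 := by
    rw [← ha, ← hb]
    apply hab.orderOf_mul_eq_mul_orderOf_of_coprime
    rw [ha, hb]; norm_num
  have := h.le4 (a * b)
  omega

theorem Hyp.prime_dvd (h : Hyp G) {p : ℕ} (hp : p.Prime) (hd : p ∣ Nat.card G) : p = 2 ∨ p = 3 := by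
  haveI := Fact.mk hp
  obtain ⟨g, hg⟩ := exists_prime_orderOf_dvd_card' p hd
  have h4 := h.le4 g
  rw [hg] at h4
  have h2 := hp.two_le
  interval_cases p
  · left; rfl
  · right; rfl
  · exact absurd hp (by norm_num)

theorem Hyp.solvable (h : Hyp G) : Group.IsSolvable G := by
  have hne : Nat.card G ≠ 0 := Nat.card_pos.ne'
  refine Cfsg.Agent.S0144.result 2 3 ((Nat.card G).factorization 2) ((Nat.card G).factorization 3)
    Nat.prime_two Nat.prime_three ?_
  conv_lhs => rw [← Nat.factorization_prod_pow_eq_self hne]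
  have hsub : (Nat.card G).factorization.support ⊆ {2, 3} := by
    intro p hp
    rw [Nat.support_factorization, Nat.mem_primeFactors] at hp
    rcases h.prime_dvd hp.1 hp.2.1 with rfl | rfl <;> simp
  rw [Finsupp.prod_of_support_subset _ hsub _ (by intro i _; exact pow_zero i)]
  rw [Finset.prod_pair (by norm_num)]

/-- an element of order 3 centralises no non-identity element of a 2-subgroup. -/
theorem Hyp.fpf_two (h : Hyp G) {x : G} (hx : orderOf x = 3) {N : Subgroup G} (hN : IsPGroup 2 N) :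
    Fpf x N := by
  intro n hn hc
  by_contra hn1
  obtain ⟨k, hk⟩ := hN ⟨n, hn⟩
  have hk' : n ^ 2 ^ k = 1 := by
    have := congrArg Subtype.val hk
    simpa using this
  obtain ⟨j, hj⟩ := (Nat.dvd_prime_pow Nat.prime_two).1 (orderOf_dvd_of_pow_eq_one hk')
  have hj0 : j ≠ 0 := by
    rintro rfl
    rw [pow_zero, orderOf_eq_one_iff] at hj
    exact hn1 hj.2
  obtain ⟨i, rfl⟩ := Nat.exists_eq_succ_of_ne_zero hj0
  have ho : orderOf (n ^ 2 ^ i) = 2 := by
    rw [orderOf_pow_of_dvd (by positivity) (by rw [hj.2]; exact pow_dvd_pow 2 (Nat.le_succ i)), hj.2,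
      pow_succ]
    exact Nat.mul_div_cancel_left 2 (by positivity)
  have hcomm : Commute (n ^ 2 ^ i) x := (Commute.pow_left (show Commute n x from hc.symm) _)
  exact h.no6 hcomm ho hx

/-- a non-identity 2-element centralises no non-identity element of a 3-subgroup. -/
theorem Hyp.fpf_three (h : Hyp G) {t : G} (ht : t ≠ 1) (ht4 : t ^ 4 = 1) {N : Subgroup G}
    (hN : IsPGroup 3 N) : Fpf t N := by
  intro n hn hc
  by_contra hn1
  obtain ⟨k, hk⟩ := hN ⟨n, hn⟩
  have hk' : n ^ 3 ^ k = 1 := by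
    have := congrArg Subtype.val hk
    simpa using this
  obtain ⟨j, hj⟩ := (Nat.dvd_prime_pow Nat.prime_three).1 (orderOf_dvd_of_pow_eq_one hk')
  have hn3 : orderOf n = 3 := by
    have h4 := h.le4 n
    rw [hj.2] at h4 ⊢
    have hj0 : j ≠ 0 := by
      rintro rfl
      rw [pow_zero, orderOf_eq_one_iff] at hj
      exact hn1 hj.2
    have hj2 : j < 2 := by
      by_contra hcon
      have : 3 ^ 2 ≤ 3 ^ j := Nat.pow_le_pow_right (by norm_num) (by omega)
      omega
    have : j = 1 := by omega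
    rw [this]; norm_num
  have hd : orderOf t ∣ 2 ^ 2 := orderOf_dvd_of_pow_eq_one (by norm_num; exact ht4)
  obtain ⟨i, hi⟩ := (Nat.dvd_prime_pow Nat.prime_two).1 hd
  have hi0 : i ≠ 0 := by
    rintro rfl
    rw [pow_zero, orderOf_eq_one_iff] at hi
    exact ht hi.2
  obtain ⟨i', rfl⟩ := Nat.exists_eq_succ_of_ne_zero hi0
  have ho : orderOf (t ^ 2 ^ i') = 2 := by
    rw [orderOf_pow_of_dvd (by positivity) (by rw [hi.2]; exact pow_dvd_pow 2 (Nat.le_succ i')), hi.2,
      pow_succ]
    exact Nat.mul_div_cancel_left 2 (by positivity)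
  have hcomm : Commute (t ^ 2 ^ i') n := (Commute.pow_left (show Commute t n from hc) _)
  exact h.no6 hcomm ho hn3

end Cfsg.Agent.Lib.Helper51.EO4
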