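import Mathlib
import Cfsg.Prelude.Def_Transfer
import Cfsg.Prelude.Def_Solvable

/-!
Ladder EO4 (helper51, proof by helper38): finite groups whose element orders are exactly 1,2,3,4 (S4006).
-/

set_option autoImplicit false

namespace Cfsg.Agent.Lib.Helper51.EO4

/-- all element orders are at most 4, and 3 and 4 occur. -/
structure Hyp (G : Type*) [Group G] : Prop where
  le4 : ∀ g : G, orderOf g ≤ 4
  ex3 : ∃ g : G, orderOf g = 3
  ex4 : ∃ g : G, orderOf g = 4

/-- `x` centralises no non-identity element of `N`. -/
def Fpf {G : Type*} [Group G] (x : G) (N : Subgroup G) : Prop := ∀ n ∈ N, x * n = n * x → n = 1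

end Cfsg.Agent.Lib.Helper51.EO4
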