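import Cfsg.Agent.Lib.Helper51.EO4.F3B

set_option autoImplicit false

namespace Cfsg.Agent.Lib.Helper51.EO4

open scoped commutatorElement

section gen
variable {N : Type*} [Group N]

/-- the projection onto `N ⧸ Z(N)` -/
def EL1_pi (n : N) : N ⧸ Subgroup.center N := QuotientGroup.mk' (Subgroup.center N) n

theorem EL1_pi_mul (a b : N) : EL1_pi (a * b) = EL1_pi a * EL1_pi b := map_mul _ a b

theorem EL1_pi_pow (a : N) (k : ℕ) : EL1_pi (a ^ k) = EL1_pi a ^ k := map_pow _ a k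

theorem EL1_pi_one : EL1_pi (1 : N) = 1 := map_one _

theorem EL1_pi_eq_one {a : N} : EL1_pi a = 1 ↔ ∀ c, Commute a c := by
  unfold EL1_pi
  rw [QuotientGroup.mk'_apply, QuotientGroup.eq_one_iff, Subgroup.mem_center_iff]
  constructor
  · intro h c; exact (h c).symm
  · intro h c; exact (h c).symm

theorem EL1_pi_map (ψ : N ≃* N) {a b : N} (h : EL1_pi a = EL1_pi b) :
    EL1_pi (ψ a) = EL1_pi (ψ b) := by
  have h1 : EL1_pi (a * b⁻¹) = 1 := by
    unfold EL1_pi at h ⊢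
    rw [map_mul, map_inv, h, mul_inv_cancel]
  rw [EL1_pi_eq_one] at h1
  have h2 : EL1_pi (ψ (a * b⁻¹)) = 1 := by
    rw [EL1_pi_eq_one]
    intro c
    have := (h1 (ψ.symm c)).map ψ
    simpa using this
  unfold EL1_pi at h2 ⊢
  rw [map_mul, map_inv, map_mul, map_inv, mul_inv_eq_one] at h2
  exact h2

variable (hcl : ∀ a b c : N, Commute ⁅a, b⁆ c)
include hcl

theorem EL1_pi_comm (a b : N) : EL1_pi a * EL1_pi b = EL1_pi b * EL1_pi a := by
  have h1 : EL1_pi ⁅a, b⁆ = 1 := EL1_pi_eq_one.2 (hcl a b)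
  have h2 : a * b = ⁅a, b⁆ * (b * a) := by rw [commutatorElement_def]; group
  rw [← EL1_pi_mul, h2, EL1_pi_mul, h1, one_mul, EL1_pi_mul]

theorem EL1_inv (ρ : N ≃* N) (hρ : ∀ n : N, (n * ρ n) ^ 2 = 1) (n : N) :
    EL1_pi (ρ (n ^ 2)) = (EL1_pi (n ^ 2))⁻¹ := by
  have h1 := congrArg EL1_pi (hρ n)
  rw [EL1_pi_pow, EL1_pi_mul, EL1_pi_one, pow_two] at h1
  rw [eq_inv_iff_mul_eq_one, map_pow, EL1_pi_pow, EL1_pi_pow, pow_two, pow_two]
  have hc := EL1_pi_comm hcl n (ρ n)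
  generalize EL1_pi n = u at *
  generalize EL1_pi (ρ n) = v at *
  calc v * v * (u * u) = v * (v * u) * u := by group
    _ = v * (u * v) * u := by rw [hc]
    _ = (v * u) * (v * u) := by group
    _ = (u * v) * (u * v) := by rw [hc]
    _ = 1 := h1

end gen

theorem EL1_fix {N : Type*} [Group N] (h4 : ∀ n : N, n ^ 4 = 1) (ρ : N ≃* N)
    (hρ : ∀ n : N, (n * ρ n) ^ 2 = 1) (z : N) (hz : ∀ c, Commute z c) : ρ (z ^ 2) = z ^ 2 := by
  have h1 := hρ z
  rw [(hz (ρ z)).mul_pow] at h1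
  have h2 : z ^ 2 * z ^ 2 = 1 := by rw [← pow_add]; exact h4 z
  rw [map_pow]
  exact mul_left_cancel (h1.trans h2.symm)

section abs
variable {N : Type*} [Group N] [Finite N] (φ : N ≃* N) (h3 : ∀ n, φ (φ (φ n)) = n)
  (hf : ∀ n, φ n = n → n = 1)

variable (τ : N ≃* N) (ht : ∀ n, τ (τ n) = n) (hi : ∀ n, τ (φ (τ n)) = φ (φ n))
  (h4 : ∀ n : N, n ^ 4 = 1) (hq : ∀ n : N, (n * τ n) ^ 2 = 1)

/-- σ = φ τ φ⁻¹ -/
def EL1_sig : N ≃* N := ((φ.trans φ).trans τ).trans φ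

theorem EL1_sig_apply (n : N) : EL1_sig φ τ n = φ (τ (φ (φ n))) := rfl

include h3 hq in
theorem EL1_sig_sq (n : N) : (n * EL1_sig φ τ n) ^ 2 = 1 := by
  have := congrArg φ (hq (φ (φ n)))
  rw [map_pow, map_mul, h3, map_one] at this
  exact this

include ht hi in
theorem EL1_sig_tau (n : N) : EL1_sig φ τ (τ n) = φ (φ n) := by
  rw [EL1_sig_apply]
  have h1 : φ (φ (τ n)) = τ (φ n) := by
    rw [← hi (τ n), ht]
  rw [h1, ht]

include h3 hf ht hi h4 hq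

theorem sq_central (n c : N) : Commute (n ^ 2) c := by
  have hcl := fpf3_central φ h3 hf
  revert c
  rw [← EL1_pi_eq_one]
  have e1 : EL1_pi (τ (n ^ 2)) = (EL1_pi (n ^ 2))⁻¹ := EL1_inv hcl τ hq n
  have e2 : EL1_pi (EL1_sig φ τ ((τ n) ^ 2)) = (EL1_pi ((τ n) ^ 2))⁻¹ :=
    EL1_inv hcl (EL1_sig φ τ) (EL1_sig_sq φ h3 τ hq) (τ n)
  rw [← map_pow, EL1_sig_tau φ τ ht hi, e1, inv_inv] at e2
  have e3 := EL1_pi_map φ e2
  rw [h3] at e3
  have e4 := congrArg EL1_pi (fpf3_norm φ h3 hf (n ^ 2))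
  rw [EL1_pi_mul, EL1_pi_mul, e2, ← e3, EL1_pi_one] at e4
  have e5 : EL1_pi (n ^ 2) * EL1_pi (n ^ 2) = 1 := by
    rw [← EL1_pi_mul, ← pow_add, h4, EL1_pi_one]
  rw [e5, one_mul] at e4
  exact e4

theorem comm_sq (a b : N) : ⁅a, b⁆ ^ 2 = 1 := by
  have hc : ∀ x, Commute ⁅a, b⁆ x := fpf3_central φ h3 hf a b
  have hab : a * b = ⁅a, b⁆ * b * a := by rw [commutatorElement_def]; group
  have hsq := sq_central φ h3 hf τ ht hi h4 hq a b
  generalize ⁅a, b⁆ = c at *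
  have h1 : a ^ 2 * b = c ^ 2 * (b * a ^ 2) := by
    calc a ^ 2 * b = a * (a * b) := by simp only [pow_two, mul_assoc]
      _ = a * (c * b * a) := by rw [hab]
      _ = (a * c) * b * a := by group
      _ = (c * a) * b * a := by rw [(hc a).eq]
      _ = c * (a * b) * a := by group
      _ = c * (c * b * a) * a := by rw [hab]
      _ = _ := by simp only [pow_two, mul_assoc]
  rw [hsq.eq] at h1
  exact (mul_eq_right.1 h1.symm)

theorem central_sq (z : N) (hz : ∀ c, Commute z c) : z ^ 2 = 1 := by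
  have e1 := EL1_fix h4 τ hq z hz
  have e2 := EL1_fix h4 (EL1_sig φ τ) (EL1_sig_sq φ h3 τ hq) z hz
  have e3 := EL1_sig_tau φ τ ht hi (z ^ 2)
  rw [e1, e2] at e3
  apply hf
  have := congrArg φ e3
  rw [h3] at this
  exact this

end abs

end Cfsg.Agent.Lib.Helper51.EO4
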