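import Cfsg.Agent.Lib.Helper51.EO4.EL1

set_option autoImplicit false

namespace Cfsg.Agent.Lib.Helper51.EO4

open scoped commutatorElement

section gen
variable {N : Type*} [Group N]

theorem EL2_comm_of_sq {a b : N} (ha : a ^ 2 = 1) (hb : b ^ 2 = 1) (hab : (a * b) ^ 2 = 1) :
    Commute a b := by
  have ha' : a⁻¹ = a := by
    rw [inv_eq_iff_mul_eq_one, ← pow_two]; exact ha
  have hb' : b⁻¹ = b := by
    rw [inv_eq_iff_mul_eq_one, ← pow_two]; exact hb
  have h1 : (a * b)⁻¹ = a * b := by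
    rw [inv_eq_iff_mul_eq_one, ← pow_two]; exact hab
  rw [mul_inv_rev, ha', hb'] at h1
  exact h1.symm

variable (hcl : ∀ a b c : N, Commute ⁅a, b⁆ c)
include hcl

theorem EL2_mul_left (x y z : N) : ⁅x * y, z⁆ = ⁅x, z⁆ * ⁅y, z⁆ := by
  have h1 : ⁅x * y, z⁆ = x * ⁅y, z⁆ * x⁻¹ * ⁅x, z⁆ := by
    simp only [commutatorElement_def]; group
  rw [h1, ← (hcl y z x).eq, mul_inv_cancel_right, (hcl y z _).eq]

theorem EL2_mul_right (x y z : N) : ⁅x, y * z⁆ = ⁅x, y⁆ * ⁅x, z⁆ := by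
  rw [← commutatorElement_inv, EL2_mul_left hcl, mul_inv_rev, commutatorElement_inv,
    commutatorElement_inv, (hcl x z _).eq]

theorem EL2_inv_right (x y : N) : ⁅x, y⁻¹⁆ = ⁅x, y⁆⁻¹ := by
  have := EL2_mul_right hcl x y y⁻¹
  rw [mul_inv_cancel, commutatorElement_one_right] at this
  exact eq_inv_of_mul_eq_one_right this.symm

end gen

section abs
variable {N : Type*} [Group N] [Finite N] (φ : N ≃* N) (h3 : ∀ n, φ (φ (φ n)) = n)
  (hf : ∀ n, φ n = n → n = 1)
variable (τ : N ≃* N) (ht : ∀ n, τ (τ n) = n) (hi : ∀ n, τ (φ (τ n)) = φ (φ n))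
  (h4 : ∀ n : N, n ^ 4 = 1) (hq : ∀ n : N, (n * τ n) ^ 2 = 1)
include h3 hf ht hi h4 hq

theorem e_comm (u v : N) : Commute (u * τ u) (v * τ v) := by
  have hc : ∀ x, Commute ⁅v, τ u⁆ x := fpf3_central φ h3 hf v (τ u)
  have hc2 : ⁅v, τ u⁆ ^ 2 = 1 := comm_sq φ h3 hf τ ht hi h4 hq v (τ u)
  have hvu : v * τ u = ⁅v, τ u⁆ * (τ u * v) := by rw [commutatorElement_def]; group
  have h1 := hq (u * v)
  generalize ⁅v, τ u⁆ = c at *
  have h2 : u * v * τ (u * v) = c * ((u * τ u) * (v * τ v)) := by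
    rw [map_mul]
    calc u * v * (τ u * τ v) = u * (v * τ u) * τ v := by simp only [mul_assoc]
      _ = u * (c * (τ u * v)) * τ v := by rw [hvu]
      _ = (u * c) * τ u * v * τ v := by simp only [mul_assoc]
      _ = (c * u) * τ u * v * τ v := by rw [(hc u).eq]
      _ = _ := by simp only [mul_assoc]
  rw [h2, (hc _).mul_pow, hc2, one_mul] at h1
  exact EL2_comm_of_sq (hq u) (hq v) h1

theorem e_comm_phi (u v : N) : Commute (u * τ u) (φ (v * τ v)) := by
  have hcl := fpf3_central φ h3 hf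
  have hab := e_comm φ h3 hf τ ht hi h4 hq u v
  generalize u * τ u = a at *
  generalize v * τ v = b at *
  have h0 : ⁅a, b⁆ = 1 := commutatorElement_eq_one_iff_commute.2 hab
  have h1 : ⁅φ a, φ b⁆ = 1 := commutatorElement_eq_one_iff_commute.2 (hab.map φ)
  have ea : φ (φ a) = (a * φ a)⁻¹ := eq_inv_of_mul_eq_one_right (fpf3_norm φ h3 hf a)
  have eb : φ (φ b) = (b * φ b)⁻¹ := eq_inv_of_mul_eq_one_right (fpf3_norm φ h3 hf b)
  have h2 : Commute (a * φ a) (b * φ b) := by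
    have := (hab.map φ).map φ
    rw [ea, eb] at this
    exact (Commute.inv_inv_iff).1 this
  have h2' : ⁅a * φ a, b * φ b⁆ = 1 := commutatorElement_eq_one_iff_commute.2 h2
  rw [EL2_mul_left hcl, EL2_mul_right hcl, EL2_mul_right hcl, h0, h1, one_mul, mul_one] at h2'
  have h5 : φ ⁅a, φ b⁆ = ⁅a, φ b⁆ := by
    rw [map_commutatorElement, eb, EL2_inv_right hcl, EL2_mul_right hcl, h1, mul_one]
    exact (eq_inv_of_mul_eq_one_left h2').symm
  exact commutatorElement_eq_one_iff_commute.1 (hf _ h5)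

end abs

end Cfsg.Agent.Lib.Helper51.EO4
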